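import Cfsg.Agent.S0280
import Cfsg.Agent.S1619
import Cfsg.Prelude.Def_Sz

set_option autoImplicit false

namespace H9.SyQ

open Cfsg

variable {G : Type*} [Group G]

theorem Ex.mat4 {F : Type*} [Field F] [CharP F 2] {n : ℕ} (hn : n ≤ 4) {M : Matrix (Fin n) (Fin n) F} {j : ℕ}
    (h : M ^ 2 ^ j = 1) : M ^ 4 = 1 := by
  rcases Nat.eq_zero_or_pos n with rfl | h0
  · exact Subsingleton.elim _ _
  have : Nonempty (Fin n) := ⟨⟨0, h0⟩⟩
  have h2 : ∀ A : Matrix (Fin n) (Fin n) F, A + A = 0 := fun A => CharTwo.add_self_eq_zero A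
  have h1 : IsNilpotent (M + 1) := ⟨2 ^ j, by
    rw [add_pow_char_pow_of_commute 2 j (Commute.one_right M), h, one_pow, h2]⟩
  have h3 : IsNilpotent (Matrix.toLin' (M + 1)) := h1.map Matrix.toLinAlgEquiv'
  have h4 := Matrix.aeval_self_charpoly (M + 1)
  rw [← Matrix.charpoly_toLin', h3.charpoly_eq_X_pow_finrank, map_pow, Polynomial.aeval_X,
    Module.finrank_fin_fun] at h4
  have h5 : (M + 1) ^ 2 ^ 2 = 0 := pow_eq_zero_of_le hn h4
  rw [add_pow_char_pow_of_commute 2 2 (Commute.one_right M), one_pow] at h5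
  exact add_right_cancel (h5.trans (h2 1).symm)

theorem Ex.lift {H : Type*} [Group H] [Finite H] (π : H →* G) (s : Function.Surjective π)
    (hH : ∀ (g : H) (j : ℕ), g ^ 2 ^ j = 1 → g ^ 4 = 1) {x : G} (h8 : x ^ 8 = 1) : x ^ 4 = 1 := by
  obtain ⟨g, rfl⟩ := s x
  obtain ⟨j, _, ⟨i, rfl⟩, e⟩ := Nat.exists_eq_two_pow_mul_odd (orderOf_pos g).ne'
  have := congrArg π (hH (g ^ (2 * i + 1)) j (by rw [← pow_mul, mul_comm, ← e, pow_orderOf_eq_one]))
  rwa [map_pow, map_pow, ← pow_mul, show (2 * i + 1) * 4 = 8 * i + 4 by ring, pow_add, pow_mul, h8, one_pow,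
    one_mul, map_one] at this

theorem Ex.sl {F : Type*} [Field F] [CharP F 2] {n : ℕ} (hn : n ≤ 4) (g : Matrix.SpecialLinearGroup (Fin n) F)
    (j : ℕ) (h : g ^ 2 ^ j = 1) : g ^ 4 = 1 :=
  Subtype.ext (by simpa using Ex.mat4 hn (M := g.1) (j := j) (by simpa using congrArg Subtype.val h))

theorem Ex.char {F : Type*} [Field F] [Fintype F] (h : Even (Fintype.card F)) : CharP F 2 :=
  ringChar.of_eq (FiniteField.even_card_iff_char_two.2 (Nat.even_iff.1 h))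

theorem ex_psl {x : G} (h8 : x ^ 8 = 1) (h4 : x ^ 4 ≠ 1) :
    ¬ ∃ (F : Type) (_ : Field F) (_ : Fintype F), ringChar F = 2 ∧
      (Nonempty (G ≃* Matrix.ProjectiveSpecialLinearGroup (Fin 2) F) ∨
        Nonempty (G ≃* Matrix.ProjectiveSpecialLinearGroup (Fin 3) F)) := by
  rintro ⟨F, _, _, h, ⟨⟨e⟩⟩ | ⟨⟨e⟩⟩⟩ <;> have := ringChar.of_eq h <;>
    exact h4 (Ex.lift (e.symm.toMonoidHom.comp (QuotientGroup.mk' _))
      (e.symm.surjective.comp (QuotientGroup.mk'_surjective _)) (Ex.sl (by norm_num)) h8)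

theorem ex_psu {x : G} (h8 : x ^ 8 = 1) (h4 : x ^ 4 ≠ 1) [IsSimpleGroup G] :
    ¬ ∃ (F : Type) (_ : Field F) (_ : Fintype F) (q : ℕ), Even q ∧ Fintype.card F = q ^ 2 ∧
      Nonempty (G ≃* PSU 3 F q) := by
  rintro ⟨F, _, _, q, h, h', ⟨e⟩⟩
  have := Ex.char (F := F) (h' ▸ h.pow_of_ne_zero (by norm_num))
  exact h4 (Ex.lift (e.symm.toMonoidHom.comp (QuotientGroup.mk' _))
    (e.symm.surjective.comp (QuotientGroup.mk'_surjective _))
    (fun g j k => Subtype.ext (Ex.sl (by norm_num) g.1 j (congrArg Subtype.val k))) h8)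

theorem ex_sz {x : G} (h8 : x ^ 8 = 1) (h4 : x ^ 4 ≠ 1) : ¬ Cfsg.Lie.IsoSuzuki G := by
  rintro ⟨F, _, _, m, -, h, ⟨e⟩⟩
  have := Ex.char (F := F) (h ▸ even_two.pow_of_ne_zero (by omega))
  refine h4 (e.injective ?_)
  have k : (e x) ^ 2 ^ 3 = 1 := by rw [← map_pow]; exact (congrArg e h8).trans (map_one e)
  rw [map_pow, map_one]
  exact Subtype.ext (Units.ext (by
    simpa using Ex.mat4 (M := (e x).1.1) (j := 3) le_rfl (by simpa using congrArg (fun g => g.1.1) k)))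

theorem ex_small (h : 4096 ∣ Nat.card G) : ¬ Nonempty (G ≃* alternatingGroup (Fin 6)) ∧
    (¬ ∃ (F : Type) (_ : Field F) (_ : Fintype F), Fintype.card F = 9 ∧ Nonempty (G ≃* PSU 3 F 3)) ∧
    ¬ Cfsg.Spor.IsoJ2 G := by
  refine ⟨fun ⟨e⟩ => ?_, fun ⟨F, _, _, h', ⟨e⟩⟩ => ?_, fun ⟨e⟩ => ?_⟩ <;> rw [Nat.card_congr e.toEquiv] at h
  · rw [nat_card_alternatingGroup] at h
    revert h; simp; decide
  · have := Cfsg.Agent.S0280.result (F := F) (q := 3) h' 3 (by norm_num)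
    simp [Finset.prod_range_succ, (by decide : ¬ Even 1)] at this
    omega
  · rw [Cfsg.Agent.S1619.result.2.2.2] at h
    omega

end H9.SyQ
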