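import Cfsg.Agent.Lib.G2S.Gen

set_option autoImplicit false

namespace H9.SyQ

open Equiv

theorem P9.inj {Ω : Type*} {U : Subgroup (Perm Ω)} {I : Set Ω}
    (fr : ∀ u ∈ U, ∀ x ∈ I, u x = x → u = 1) {x : Ω} (hx : x ∈ I) {u v : U}
    (h : u.1 x = v.1 x) : u = v := by
  have := fr _ (v⁻¹ * u).2 x hx (by
    show v.1⁻¹ (u.1 x) = x
    rw [h]; exact v.1.symm_apply_apply x)
  exact (inv_mul_eq_one.1 (Subtype.ext this : v⁻¹ * u = 1)).symm

theorem P9.tr {Ω : Type*} [Finite Ω] {U : Subgroup (Perm Ω)} {I : Set Ω} (hc : Nat.card I ≤ 7)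
    (c : 4 ≤ Nat.card U) (fr : ∀ u ∈ U, ∀ x ∈ I, u x = x → u = 1)
    (i : ∀ u ∈ U, ∀ x ∈ I, u x ∈ I) {x y : Ω} (hx : x ∈ I) (hy : y ∈ I) : ∃ u ∈ U, u x = y := by
  by_contra! h
  have key : ∀ u v : U, u.1 x ≠ v.1 y := fun u v e => h _ (v⁻¹ * u).2 (by
    show v.1⁻¹ (u.1 x) = y
    rw [e]; exact v.1.symm_apply_apply y)
  have := Nat.card_le_card_of_injective (β := I)
    (Sum.elim (fun u : U => ⟨u.1 x, i _ u.2 x hx⟩) (fun u : U => ⟨u.1 y, i _ u.2 y hy⟩)) (by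
      rintro (u | u) (v | v) e <;> have e := congrArg Subtype.val e
      · rw [P9.inj fr hx e]
      · exact absurd e (key u v)
      · exact absurd e.symm (key v u)
      · rw [P9.inj fr hy e])
  rw [Nat.card_sum] at this
  omega

theorem p9 {Ω : Type*} [Finite Ω] (hΩ : Nat.card Ω ≤ 9) (X : Subgroup (Perm Ω))
    (hodd : ∀ g ∈ X, ∀ a b, a ≠ b → g a = a → g b = b → Odd (orderOf g))
    {p p' : Ω} (hp : p ≠ p') {U U' : Subgroup (Perm Ω)} (hU : U ≤ X) (hU' : U' ≤ X)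
    (c : 4 ≤ Nat.card U) (c' : 4 ≤ Nat.card U') (sq : ∀ u ∈ U, u * u = 1)
    (sq' : ∀ u ∈ U', u * u = 1) (f : ∀ u ∈ U, u p = p) (f' : ∀ u ∈ U', u p' = p')
    {I : Set Ω} (hI : I.Nonempty) (n : p ∉ I) (n' : p' ∉ I) (i : ∀ u ∈ U, ∀ x ∈ I, u x ∈ I)
    (i' : ∀ u ∈ U', ∀ x ∈ I, u x ∈ I) : False := by
  classical
  have free : ∀ g ∈ X, g * g = 1 → ∀ a b, a ≠ b → g a = a → g b = b → g = 1 :=
    fun g hg h2 a b ab ha hb => by
      by_contra h1
      have := hodd g hg a b ab ha hb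
      rw [orderOf_eq_prime (p := 2) (by rwa [pow_two]) h1] at this
      exact absurd this (by decide)
  have fr : ∀ u ∈ U, ∀ x ∈ I, u x = x → u = 1 := fun u hu x hx e =>
    free u (hU hu) (sq u hu) x p (fun h => n (h ▸ hx)) e (f u hu)
  have fr' : ∀ u ∈ U', ∀ x ∈ I, u x = x → u = 1 := fun u hu x hx e =>
    free u (hU' hu) (sq' u hu) x p' (fun h => n' (h ▸ hx)) e (f' u hu)
  have c7 : Nat.card I ≤ 7 := by
    have := Set.ncard_le_card (insert p (insert p' I))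
    rw [Set.ncard_insert_of_notMem (by simp [hp, n]), Set.ncard_insert_of_notMem n'] at this
    rw [Nat.card_coe_set_eq]; omega
  obtain ⟨x, hx⟩ := hI
  have c4 : Nat.card I ≤ 4 := by
    have a1 := Nat.card_le_card_of_injective (β := I) (fun u : U => ⟨u.1 x, i _ u.2 x hx⟩)
      fun u v e => P9.inj fr hx (congrArg Subtype.val e)
    have a2 := Nat.card_le_card_of_surjective (β := I) (fun u : U => ⟨u.1 x, i _ u.2 x hx⟩)
      fun y => let ⟨u, hu, e⟩ := P9.tr c7 c fr i hx y.2; ⟨⟨u, hu⟩, Subtype.ext e⟩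
    obtain ⟨k, hk⟩ := IsPGroup.iff_card.1 (H89.G2S.isP_of_sq sq)
    rw [hk] at a1 a2
    have : k < 3 := (Nat.pow_lt_pow_iff_right (by norm_num)).1 (show 2 ^ k < 2 ^ 3 by omega)
    interval_cases k <;> omega
  have := Fintype.ofFinite U
  obtain ⟨a, b, d, ab, ad, bd⟩ := Fintype.two_lt_card_iff.1
    (show 2 < Fintype.card U by rw [← Nat.card_eq_fintype_card]; omega)
  obtain ⟨u, hu, w, hw, u1, w1, uw⟩ : ∃ u ∈ U, ∃ w ∈ U, u ≠ 1 ∧ w ≠ 1 ∧ w ≠ u :=
    ⟨_, (a⁻¹ * b).2, _, (a⁻¹ * d).2, fun e => ab (inv_mul_eq_one.1 (Subtype.ext e)),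
      fun e => ad (inv_mul_eq_one.1 (Subtype.ext e)),
      fun e => bd (mul_left_cancel (Subtype.ext e : a⁻¹ * d = a⁻¹ * b)).symm⟩
  have ux : u x ≠ x := fun e => u1 (fr u hu x hx e)
  obtain ⟨u', hu', e'⟩ := P9.tr c7 c' fr' i' hx (i u hu x hx)
  have u1' : u' ≠ 1 := fun e => ux (by rw [← e', e]; rfl)
  have uu : ∀ y, u (u y) = y := fun y => congrArg (fun g : Perm Ω => g y) (sq u hu)
  have uu' : ∀ y, u' (u' y) = y := fun y => congrArg (fun g : Perm Ω => g y) (sq' u' hu')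
  have ag : ∀ y ∈ I, u' y = u y := fun y hy => by
    by_cases y1 : y = x
    · rw [y1, e']
    by_cases y2 : y = u x
    · rw [y2, uu, ← e', uu']
    by_contra ne
    have b1 : u y ≠ x := fun e => y2 (by rw [← e, uu])
    have b2 : u y ≠ u x := fun e => y1 (u.injective e)
    have b3 : u y ≠ y := fun e => u1 (fr u hu y hy e)
    have b4 : u' y ≠ x := fun e => y2 (by rw [← e', ← e, uu'])
    have b5 : u' y ≠ u x := fun e => y1 (u'.injective (e.trans e'.symm))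
    have b6 : u' y ≠ y := fun e => u1' (fr' u' hu' y hy e)
    have := Set.ncard_le_ncard (show ({u' y, u y, y, u x, x} : Set Ω) ⊆ I by
      simp [Set.insert_subset_iff, hx, hy, i u hu, i' u' hu'])
    rw [Set.ncard_insert_of_notMem (by simp [*]), Set.ncard_insert_of_notMem (by simp [*]),
      Set.ncard_insert_of_notMem (by simp [*]), Set.ncard_pair ux, ← Nat.card_coe_set_eq] at this
    omega
  let K : Subgroup (Perm Ω) := X ⊓ fixingSubgroup (Perm Ω) I
  have mK : ∀ g, g ∈ K ↔ g ∈ X ∧ ∀ y ∈ I, g y = y := fun g =>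
    and_congr_right fun _ => mem_fixingSubgroup_iff (Perm Ω)
  have oK : Odd (Nat.card K) := by
    by_contra h
    obtain ⟨g, hg⟩ := exists_prime_orderOf_dvd_card' 2 (even_iff_two_dvd.1 (Nat.not_odd_iff_even.1 h))
    have m := (mK g).1 g.2
    have := hodd g m.1 _ _ ux (m.2 _ (i u hu x hx)) (m.2 x hx)
    rw [Subgroup.orderOf_coe, hg] at this
    exact absurd this (by decide)
  have nK : ∀ v ∈ U, v ∈ Subgroup.normalizer (K : Set (Perm Ω)) := fun v hv =>
    Subgroup.mem_normalizer_fintype fun g hg => (mK _).2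
      ⟨mul_mem (mul_mem (hU hv) ((mK g).1 hg).1) (inv_mem (hU hv)), fun y hy => by
        show v (g (v⁻¹ y)) = y
        rw [((mK g).1 hg).2 _ (i _ (inv_mem hv) y hy)]
        exact v.apply_symm_apply y⟩
  have kk : ∀ v ∈ U, v ≠ 1 → ∀ y ∈ K, y * v = v * y → y ∈ MulAction.stabilizer (Perm Ω) p :=
    fun v hv v1 y _ e => by
      by_contra h
      refine v1 (free v (hU hv) (sq v hv) (y p) p h ?_ (f v hv))
      have := congrArg (fun g : Perm Ω => g p) e
      simp only [Perm.mul_apply, f v hv] at this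
      exact this.symm
  have cm : u * w = w * u := by
    rw [← inv_eq_of_mul_eq_one_right (sq _ (mul_mem hu hw)), mul_inv_rev,
      inv_eq_of_mul_eq_one_right (sq u hu), inv_eq_of_mul_eq_one_right (sq w hw)]
  have le := H89.G2S.gen4 (sq u hu) (sq w hw) u1 w1 uw cm oK (nK u hu) (nK w hw) (kk u hu u1)
    (kk w hw w1) (kk _ (mul_mem hu hw) fun e => uw (by
      rw [← inv_eq_of_mul_eq_one_right e, inv_eq_of_mul_eq_one_right (sq u hu)]))
  have h : u (u' p) = p := le ((mK (u * u')).2 ⟨mul_mem (hU hu) (hU' hu'), fun y hy => by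
    show u (u' y) = y
    rw [ag y hy, uu]⟩)
  exact u1' (free u' (hU' hu') (sq' u' hu') p p' hp (by rw [← uu (u' p), h, f u hu]) (f' u' hu'))

end H9.SyQ
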