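import Mathlib
import Cfsg.Prelude.Def_LieTwisted

set_option autoImplicit false

namespace H9.SyQ

open Cfsg Cfsg.Lie

section Tr

variable {K K' : Type*} [Field K] [Field K']

theorem tr_xMat (D : ChevalleyDatum) (f : K →+* K') (r : Fin D.nroots) (t : K) :
    (D.xMat K r t).map f = D.xMat K' r (f t) := by
  ext row col
  rcases row with i | u <;> rcases col with j | s <;>
    simp only [Matrix.map_apply, ChevalleyDatum.xMat, Matrix.of_apply] <;>
    split_ifs <;>
    simp [map_list_sum, List.map_map, Function.comp_def]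

theorem tr_x (D : ChevalleyDatum) (f : K →+* K') (r : ℕ) (t : K) :
    (D.x K r t).map f = D.x K' r (f t) := by
  unfold ChevalleyDatum.x
  split_ifs with h
  · exact tr_xMat D f _ t
  · exact Matrix.map_one _ (map_zero f) (map_one f)

theorem tr_word (D : ChevalleyDatum) (f : K →+* K') (w : List (ℕ × K)) :
    (D.wordMat K w).map f = D.wordMat K' (w.map fun p => (p.1, f p.2)) := by
  unfold ChevalleyDatum.wordMat
  induction w with
  | nil => simpa using Matrix.map_one _ (map_zero f) (map_one f)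
  | cons a w ih =>
    simp only [List.map_cons, List.prod_cons, Matrix.map_mul, ih, tr_x]

theorem tr_closure {n : Type*} [Fintype n] [DecidableEq n] (e : K ≃+* K') (S : Set (GL n K)) (S' : Set (GL n K'))
    (h : ∀ g ∈ S, Matrix.GeneralLinearGroup.map e.toRingHom g ∈ S')
    (h' : ∀ g ∈ S', Matrix.GeneralLinearGroup.map e.symm.toRingHom g ∈ S) :
    Nonempty (Subgroup.closure S ≃* Subgroup.closure S') := by
  have inj : Function.Injective (Matrix.GeneralLinearGroup.map (n := n) e.toRingHom) := by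
    intro a b hab
    refine Units.ext (Matrix.ext fun i j => e.injective ?_)
    exact congrArg (fun g : GL n K' => (g : Matrix n n K') i j) hab
  have him : (Matrix.GeneralLinearGroup.map (n := n) e.toRingHom) '' S = S' := by
    refine Set.Subset.antisymm (by rintro _ ⟨g, hg, rfl⟩; exact h g hg) fun g hg => ⟨_, h' g hg, ?_⟩
    exact Units.ext (Matrix.ext fun i j => e.apply_symm_apply _)
  have hm : (Subgroup.closure S).map (Matrix.GeneralLinearGroup.map (n := n) e.toRingHom) =
      Subgroup.closure S' := by rw [MonoidHom.map_closure, him]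
  exact ⟨((Subgroup.closure S).equivMapOfInjective _ inj).trans (MulEquiv.subgroupCongr hm)⟩

theorem tr_d4Words (f : K →+* K') (q : ℕ) (w : List (ℕ × K)) (hw : w ∈ d4Words K q) :
    (w.map fun p => (p.1, f p.2)) ∈ d4Words K' q := by
  rcases hw with ⟨t, ht, r, hr, rfl⟩ | ⟨t, rs, hrs, rfl⟩
  · exact Or.inl ⟨f t, by rw [← map_pow, ht], r, hr, rfl⟩
  · exact Or.inr ⟨f t, rs, hrs, by simp [map_pow]⟩

end Tr

theorem tr_G2 {F F' : Type*} [Field F] [Field F'] [Fintype F] [Fintype F']
    (h : Fintype.card F = Fintype.card F') : Nonempty (chevG2.group F ≃* chevG2.group F') := by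
  refine tr_closure (FiniteField.ringEquivOfCardEq h) _ _ ?_ ?_
  · rintro g ⟨r, t, hg⟩
    refine ⟨r, _, Eq.trans ?_ (tr_xMat chevG2 (FiniteField.ringEquivOfCardEq h).toRingHom r t)⟩
    rw [← hg]; rfl
  · rintro g ⟨r, t, hg⟩
    refine ⟨r, _, Eq.trans ?_ (tr_xMat chevG2 (FiniteField.ringEquivOfCardEq h).symm.toRingHom r t)⟩
    rw [← hg]; rfl

theorem tr_D4 {K K' : Type*} [Field K] [Field K'] [Fintype K] [Fintype K']
    (h : Fintype.card K = Fintype.card K') (q : ℕ) : Nonempty (twistedD4 K q ≃* twistedD4 K' q) := by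
  refine tr_closure (FiniteField.ringEquivOfCardEq h) _ _ ?_ ?_
  · rintro g ⟨w, hw, hg⟩
    refine ⟨_, tr_d4Words (FiniteField.ringEquivOfCardEq h).toRingHom q w hw,
      Eq.trans ?_ (tr_word chevD4 _ w)⟩
    rw [← hg]; rfl
  · rintro g ⟨w, hw, hg⟩
    refine ⟨_, tr_d4Words (FiniteField.ringEquivOfCardEq h).symm.toRingHom q w hw,
      Eq.trans ?_ (tr_word chevD4 _ w)⟩
    rw [← hg]; rfl

end H9.SyQ
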